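import Cfsg.Agent.X9.V8
import Cfsg.Agent.X9P.Defs

/-!
# Charts: `Q_s ∩ C(z)` acts regularly on a basis of `Q_z / ⟨z⟩`
-/

set_option autoImplicit false

universe u

namespace Cfsg.Lib.X9

open Subgroup Cfsg.Lib.Local Cfsg.Lib.Solv Module Cfsg.Lib.Spor Cfsg.Lib.LX V8
open scoped Pointwise commutatorElement

noncomputable section

/-- The permutation matrix of `i ↦ i + u`. -/
def bm (u : ℕ) : ℕ := Nat.land (Nat.shiftRight
  0x1020408102040800201080420108040040801024080102008040201804020101020408001020408201080400201080440801020040801028040201008040201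
  (Nat.mul 64 u)) 0xffffffffffffffff
/-- The nontrivial ones. -/
def BL : List ℕ := [0x4080102004080102, 0x2010804002010804, 0x1020408001020408, 0x804020180402010,
  0x408010240801020, 0x201080420108040, 0x102040810204080]
/-- The image of `Q_z ∩ Q_s`. -/
def Em : ℕ := 0x8001000000001008000004200240000000000240042000001008000000008001
/-- The same as a list. -/
def EL : List ℕ := [0, 15, 51, 60, 85, 90, 102, 105, 150, 153, 165, 170, 195, 204, 240, 255]
/-- A quadratic form given by its table. -/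
def qz (qt : ℕ) (v : V8) : ZMod 2 := cond (bt qt v.1) 1 0
/-- Its polar form. -/
def bq (qt u v : ℕ) : Bool := xor (bt qt (Nat.xor u v)) (xor (bt qt u) (bt qt v))
/-- The five types: the basis is singular, `b(e_i, e_j) = 1` iff `i + j` lies in `{1}`, `{1,2,3}`,
`{1,2,4}`, `{1,…,5}`, `{1,…,7}`. -/
def q1 : ℕ := 0x7888877787778777877778887888788887777888788878888777788878887888
def q2 : ℕ := 0x7ee88117811781178117811781177ee88117811781177ee881177ee87ee87ee8
def q3 : ℕ := 0x7dbed714b172e4278d4ed81b4182eb2882be2814b18de4d88db1d8e4be821428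
def q4 : ℕ := 0x7ee8e771e77181178ee7e881e88171188ee7e881e88171188117188e188e7ee8
def q5 : ℕ := 0x7ee8e881e8818117e88181178117177ee88181178117177e8117177e177e7ee8
/-- The six systems: an extra generator and the set of points. -/
def g27 : ℕ := 0xa54121556905ff01
def p27 : ℕ := 0x8000000000000000000004210040001500000200042101030000010300150536
def g81 : ℕ := 0xbd7dedddf9f5ff01
def p81 : ℕ := 0x8660688068800000688087768776066168808776877606610000066106610116
def g75 : ℕ := 0xdb3a206a59755301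
def p75 : ℕ := 0x80014cc82aa80ee07e005a483c28001170e054a832c801016660000300058116
def g15 : ℕ := 0x8108694240ff1801
def p15 : ℕ := 0x8000000000000000000000000040000300000200000000050000001101010116
def g9 : ℕ := 0x20ff800810020401
def p9 : ℕ := 0x8000000000000000000000000000000100000000000000010000000100010116
def g135 : ℕ := 0x5e9e3e0f1d1b1701
def p135 : ℕ := 0x8117177e177e7ee8177e7ee87ee8e881177e7ee87ee8e8817ee8e881e8818116

/-- List lookup. -/
def nth (l : List ℕ) : ℕ → ℕ :=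
  List.rec (fun _ => idM) (fun a _ ih n => Nat.rec a (fun m _ => ih m) n) l
/-- A word: the digit `k + 1` (base 16, lowest digit = leftmost factor) is the generator `k`. -/
def ev (l : List ℕ) : ℕ → ℕ := Nat.rec (fun _ => idM) (fun _ ih w => cond (Nat.beq w 0) idM
  (mu (nth l (Nat.pred (Nat.land w 15))) (ih (Nat.shiftRight w 4)))) 16
/-- `∀ i < n, f i`. -/
def allN (n : ℕ) (f : ℕ → Bool) : Bool := Nat.rec true (fun i ih => cond (f i) ih false) n
/-- `∃ i < n, f i`. -/
def anyN (n : ℕ) (f : ℕ → Bool) : Bool := Nat.rec false (fun i ih => cond (f i) true ih) n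

theorem bm_eq_1' : type_of% @bm.eq_1 := @bm.eq_1
theorem BL_eq_1' : type_of% @BL.eq_1 := @BL.eq_1
theorem Em_eq_1' : type_of% @Em.eq_1 := @Em.eq_1
theorem EL_eq_1' : type_of% @EL.eq_1 := @EL.eq_1
theorem qz_eq_1' : type_of% @qz.eq_1 := @qz.eq_1
theorem bq_eq_1' : type_of% @bq.eq_1 := @bq.eq_1
theorem nth_eq_1' : type_of% @nth.eq_1 := @nth.eq_1
theorem ev_eq_1' : type_of% @ev.eq_1 := @ev.eq_1
theorem allN_eq_1' : type_of% @allN.eq_1 := @allN.eq_1
theorem anyN_eq_1' : type_of% @anyN.eq_1 := @anyN.eq_1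

theorem allN_iff {n : ℕ} {f : ℕ → Bool} : allN n f = true ↔ ∀ i < n, f i = true := by
  induction n with
  | zero => exact ⟨fun _ _ h => absurd h (Nat.not_lt_zero _), fun _ => rfl⟩
  | succ n ih =>
    change cond (f n) (allN n f) false = true ↔ _
    rw [Nat.forall_lt_succ_right, ← ih]
    cases f n <;> simp

theorem anyN_iff {n : ℕ} {f : ℕ → Bool} : anyN n f = true ↔ ∃ i < n, f i = true := by
  induction n with
  | zero => exact ⟨fun h => absurd h Bool.false_ne_true, fun ⟨_, h, _⟩ => absurd h (Nat.not_lt_zero _)⟩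
  | succ n ih =>
    change cond (f n) true (anyN n f) = true ↔ _
    rw [Nat.exists_lt_succ_right, ← ih]
    cases f n <;> simp

theorem nth_ind {P : ℕ → Prop} (h1 : P idM) {l : List ℕ} (h : ∀ M ∈ l, P M) (k : ℕ) :
    P (nth l k) := by
  induction l generalizing k with
  | nil => exact h1
  | cons a l ih =>
    cases k with
    | zero => exact h a List.mem_cons_self
    | succ k => exact ih (fun M m => h M (List.mem_cons_of_mem _ m)) k

theorem ev_ind {P : ℕ → Prop} (h1 : P idM) (hm : ∀ M N, P M → P N → P (mu M N)) {l : List ℕ}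
    (h : ∀ M ∈ l, P M) (w : ℕ) : P (ev l w) := by
  unfold ev
  generalize 16 = n
  induction n generalizing w with
  | zero => exact h1
  | succ n ih =>
    change P (cond _ _ _)
    cases Nat.beq w 0
    exacts [hm _ _ (nth_ind h1 h _) (ih _), h1]

theorem mem_BL : ∀ M ∈ BL, ∃ u < 8, M = bm u := by decide +kernel

variable {G : Type u} [Group G] {z s w g k : G}

/-- The element `g` of `C(z)` acts as the matrix `M`. -/
def Act (S : Sh (qOf z) z V8) (g : G) (M : ℕ) : Prop :=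
  g ∈ centralizer ({z} : Set G) ∧ ∀ v, S.ρ g v = lin M v
/-- The matrix `M` is induced by `C(z)`. -/
def In (S : Sh (qOf z) z V8) (M : ℕ) : Prop := ∃ g, Act S g M

/-- A chart. -/
structure Ch (qt : ℕ) (S : Sh (qOf z) z V8) (s : G) : Prop where
  nw : NW z s
  q : ∀ v, S.q v = qz qt v
  p : S.π s = V8.mk 255
  B : ∀ u < 8, ∃ a ∈ BB z s, Act S a (bm u)
  B' : ∀ a ∈ BB z s, ∃ u < 8, Act S a (bm u)

/-- The trilinear form vanishes at no point. -/
def Hy {V : Type*} [AddCommGroup V] [Module (ZMod 2) V] (S : Sh (qOf z) z V) : Prop :=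
  ∀ w, NW z w → ¬ ∀ a ∈ BB z w, ∀ y, S.b y (S.π w) = 0 → S.N a y = 0 ∨ S.N a y = S.π w

/-- A chart with an extra generator `g` and the set of points `pts`. -/
structure Sys (qt g pts : ℕ) (S : Sh (qOf z) z V8) (s : G) : Prop extends Ch qt S s where
  hy : Hy S
  gen : In S g
  pt : ∀ w, NW z w → bt pts (S.π w).1 = true

theorem Act_eq_1' : type_of% @Act.eq_1 := @Act.eq_1
theorem In_eq_1' : type_of% @In.eq_1 := @In.eq_1
theorem Hy_eq_1' : type_of% @Hy.eq_1 := @Hy.eq_1

variable {S : Sh (qOf z) z V8} {M N qt : ℕ}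

theorem Act.one : Act S 1 idM := ⟨one_mem _, fun v => by rw [S.ρ_one, lin_id]⟩

theorem Act.of_mem (h : g ∈ qOf z) : Act S g idM :=
  ⟨qOf_le z h, fun v => by rw [S.ρ_of_mem h, lin_id]⟩

theorem Act.mul (h : Act S g M) (h' : Act S k N) : Act S (g * k) (mu M N) :=
  ⟨mul_mem h.1 h'.1, fun v => by rw [S.ρ_mul h.1 h'.1, h'.2, h.2, lin_mu]⟩

theorem Act.inv (h : Act S g M) (e : ∀ v, lin M (lin N v) = v) : Act S g⁻¹ N :=
  ⟨inv_mem h.1, fun v => by rw [← S.ρ_inv_ρ h.1 (lin N v), h.2, e]⟩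

theorem Act.mem_Q [Finite G] (h : Act S g M) (h' : Act S k M) : g⁻¹ * k ∈ qOf z :=
  S.mem_of_ρ (mul_mem (inv_mem h.1) h'.1) fun v => by
    rw [S.ρ_mul (inv_mem h.1) h'.1, h'.2, ← h.2, S.ρ_inv_ρ h.1]

theorem act_pk (h : g ∈ centralizer ({z} : Set G)) : Act S g (pk (S.ρ g)) :=
  ⟨h, fun v => (lin_pk (map_add _) v).symm⟩

theorem In.mul (h : In S M) (h' : In S N) : In S (mu M N) := by
  obtain ⟨g, h⟩ := h
  obtain ⟨k, h'⟩ := h'
  exact ⟨_, h.mul h'⟩

theorem In.ev {l : List ℕ} (h : ∀ M ∈ l, In S M) (w : ℕ) : In S (ev l w) :=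
  ev_ind (P := In S) ⟨1, .one⟩ (fun _ _ => In.mul) h w

/-- Words inside a subgroup. -/
theorem ev_sub {K : Subgroup G} {l : List ℕ} (h : ∀ M ∈ l, ∃ g ∈ K, Act S g M) (w : ℕ) :
    ∃ g ∈ K, Act S g (ev l w) :=
  ev_ind (P := fun M => ∃ g ∈ K, Act S g M) ⟨1, one_mem _, .one⟩
    (fun _ _ ⟨_, a, b⟩ ⟨_, c, d⟩ => ⟨_, mul_mem a c, b.mul d⟩) h w

theorem Ch.inBL (h : Ch qt S s) : ∀ M ∈ BL, ∃ a ∈ BB z s, Act S a M := fun M m => by
  obtain ⟨u, hu, rfl⟩ := mem_BL M m
  exact h.B u hu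

theorem Ch.b (h : Ch qt S s) (u v : V8) : S.b u v = cond (bq qt u.1 v.1) 1 0 := by
  have := S.q_add u v
  rw [h.q, h.q, h.q, qz, qz, qz, add_val] at this
  rw [bq]
  change _ = cond (xor (bt qt (u.1 ^^^ v.1)) _) _ _
  revert this
  generalize S.b u v = c
  revert c
  cases bt qt (u.1 ^^^ v.1) <;> cases bt qt u.1 <;> cases bt qt v.1 <;> decide

theorem Ch.b0 (h : Ch qt S s) {u v : V8} : S.b u v = 0 ↔ bq qt u.1 v.1 = false := by
  rw [h.b]; cases bq qt u.1 v.1 <;> simp

theorem Ch.q0 (h : Ch qt S s) {v : V8} : S.q v = 0 ↔ bt qt v.1 = false := by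
  rw [h.q, qz]; cases bt qt v.1 <;> simp

section
variable {V V' : Type*} [AddCommGroup V] [Module (ZMod 2) V] [AddCommGroup V'] [Module (ZMod 2) V']
  {S : Sh (qOf z) z V}

theorem Hy.map (h : Hy S) (κ : V' ≃ₗ[ZMod 2] V) : Hy (S.map κ) := fun w n k => h w n fun a ha y e => by
  have := k a ha (κ.symm y) (by simpa [Sh.map] using e)
  simpa [Sh.map, Sh.N_apply, ← map_add] using this

variable [Finite G] [Finite V]

theorem Hy.t1 (h : Hy S) (hV : finrank (ZMod 2) V = 8) (n : NW z w) : T1 S w :=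
  (n.dichotomy S hV).resolve_left (h w n)

theorem exists_fix (S : Sh (qOf z) z V) [Nontrivial V] {T : Subgroup G} (hT : IsPGroup 2 T)
    (le : T ≤ centralizer ({z} : Set G)) : ∃ v ≠ 0, ∀ t ∈ T, S.ρ t v = v := by
  let _ : MulAction T V :=
    { smul := fun t v => S.ρ t v
      one_smul := S.ρ_one
      mul_smul := fun a b => S.ρ_mul (le a.2) (le b.2) }
  have : Fact (Nat.Prime 2) := ⟨Nat.prime_two⟩
  obtain ⟨v, a, b⟩ := hT.exists_fixed_point_of_prime_dvd_card_of_fixed_point V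
    (by rw [card_eq_pow]; exact dvd_pow_self _ finrank_pos.ne') (a := 0)
    (fun t => map_zero (S.ρ t))
  exact ⟨v, b.symm, fun t ht => a ⟨t, ht⟩⟩

theorem Hy.orb (h : Hy S) (hV : finrank (ZMod 2) V = 8) (n : NW z s) (m : NW z w) :
    ∃ c ∈ centralizer ({z} : Set G), c * s * c⁻¹ = w := by
  obtain ⟨T, hT, le⟩ := Block.exists_isSylowIn_ge (n.ps.isPGroup.to_inf_left (K := centralizer {z}))
    inf_le_right
  obtain ⟨c, hc, k⟩ := hT.exists_conj_le (m.ps.isPGroup.to_inf_left (K := centralizer {z}))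
    inf_le_right
  have : Nontrivial V := ⟨_, _, n.π_ne S⟩
  obtain ⟨v, v0, f⟩ := exists_fix S hT.isPGroup hT.le
  have m' := m.conj' hc
  have e1 := ((h.t1 hV n).three v fun a ha => S.N_eq_zero.2 (f a (le ha))).resolve_left v0
  have e2 := ((h.t1 hV m').three v fun a ha => S.N_eq_zero.2 (f a (k ⟨c⁻¹ * a * c, by
    simpa [mul_assoc] using NW.B_conj (inv_mem hc) ha, by simp [mul_assoc]⟩))).resolve_left v0
  obtain ⟨y, hy, e⟩ : ∃ y ∈ qOf z, y * s * y⁻¹ = c * w * c⁻¹ := by
    rcases (S.π_eq_iff n.mem m'.mem).1 (e1.symm.trans e2) with e | e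
    · exact ⟨1, one_mem _, by simp [e]⟩
    · obtain ⟨y, hy, r⟩ := n.exists_x
      exact ⟨y, hy, by rw [r, e, n.comm]⟩
  exact ⟨c⁻¹ * y, mul_mem (inv_mem hc) (qOf_le z hy), by
    rw [show c⁻¹ * y * s * (c⁻¹ * y)⁻¹ = c⁻¹ * (y * s * y⁻¹) * c by group, e]; group⟩

end

/-- The side condition on the table: the perp of `Em` is `Em`. -/
def okE (qt : ℕ) : Bool := allN 256 fun v => bt Em v ||
  (bq qt 15 v || bq qt 51 v || bq qt 85 v || bq qt 255 v)

theorem okE_eq_1' : type_of% @okE.eq_1 := @okE.eq_1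

theorem okE_all : okE q1 = true ∧ okE q2 = true ∧ okE q3 = true ∧ okE q4 = true ∧ okE q5 = true := by
  decide +kernel

theorem Ch.E_of (h : Ch qt S s) {v : V8} (hv : bt Em v.1 = true) : v ∈ S.E s := by
  have k : ∀ i < 8, ∀ j < 8, ∀ x, lin (bm i) (lin (bm j) x + x) + (lin (bm j) x + x) ∈ S.E s :=
    fun i hi j hj x => by
      obtain ⟨a, ha, e⟩ := h.B i hi
      obtain ⟨b, hb, f⟩ := h.B j hj
      simpa only [S.N_apply, e.2, f.2] using h.nw.NN_mem S ha hb x
  have a : V8.mk 15 ∈ S.E s := by convert k 1 (by decide) 2 (by decide) (V8.mk 1) using 1; decide +kernel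
  have b : V8.mk 51 ∈ S.E s := by convert k 1 (by decide) 4 (by decide) (V8.mk 1) using 1; decide +kernel
  have c : V8.mk 85 ∈ S.E s := by convert k 2 (by decide) 4 (by decide) (V8.mk 1) using 1; decide +kernel
  have d : V8.mk 255 ∈ S.E s := h.p ▸ h.nw.s_mem_E S
  have e : ∀ v : V8, bt Em v.1 = true → ∃ i j k l : ZMod 2,
      v = i • V8.mk 15 + j • V8.mk 51 + k • V8.mk 85 + l • V8.mk 255 := by decide +kernel
  obtain ⟨i, j, k, l, rfl⟩ := e v hv
  exact add_mem (add_mem (add_mem (Submodule.smul_mem _ _ a) (Submodule.smul_mem _ _ b))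
    (Submodule.smul_mem _ _ c)) (Submodule.smul_mem _ _ d)

theorem Ch.mem_E (h : Ch qt S s) (o : okE qt = true) {v : V8} : v ∈ S.E s ↔ bt Em v.1 = true := by
  refine ⟨fun m => ?_, h.E_of⟩
  have k : ∀ n, bt Em n = true → n < 256 → bq qt n v.1 = false := fun n a b => by
    rw [← mk_val b, ← h.b0]
    exact h.nw.b_E S (h.E_of (by rwa [mk_val b])) m
  simpa [k 15 (by decide +kernel), k 51 (by decide +kernel), k 85 (by decide +kernel),
    k 255 (by decide +kernel)] using allN_iff.1 o _ v.lt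

/-- If the points form one orbit of words `W` then `LL z` lies in
every subgroup containing `Q`, `BB z s` and an element acting as the extra generator. -/
theorem Sys.LL_le [Finite G] {γ pts : ℕ} (h : Sys qt γ pts S s) (W : ℕ → ℕ)
    (hW : allN 256 (fun y => !bt pts y || Nat.beq (ap (ev (γ :: BL) (W y)) 255) y) = true)
    {K : Subgroup G} (h1 : qOf z ≤ K) (h2 : BB z s ≤ K) (h3 : ∃ g ∈ K, Act S g γ) :
    (∀ w, NW z w → ∃ c ∈ K, c ∈ centralizer ({z} : Set G) ∧ c * s * c⁻¹ = w) ∧ X9P.LL z ≤ K := by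
  have a : ∀ w, NW z w → ∃ c ∈ K, c ∈ centralizer ({z} : Set G) ∧ c * s * c⁻¹ = w := fun w n => by
    obtain ⟨c, hc, e⟩ := ev_sub (S := S) (K := K) (l := γ :: BL) (fun M m => by
      rcases List.mem_cons.1 m with rfl | m
      · exact h3
      · exact (h.inBL M m).imp fun _ k => ⟨h2 k.1, k.2⟩) (W (S.π w).1)
    have f := allN_iff.1 hW _ (S.π w).lt
    rw [h.pt w n, Bool.not_true, Bool.false_or] at f
    have m := h.nw.conj' e.1
    have r : S.π (c * s * c⁻¹) = S.π w := by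
      rw [← S.ρ_π c e.1 s h.nw.mem, e.2, h.p]
      exact V8.ext (Nat.eq_of_beq_eq_true f)
    rcases (S.π_eq_iff m.mem n.mem).1 r with r | r
    · exact ⟨c, hc, e.1, r.symm⟩
    · obtain ⟨y, hy, t⟩ := m.exists_x
      exact ⟨y * c, mul_mem (h1 hy) hc, mul_mem (qOf_le z hy) e.1, by
        rw [r, m.comm, ← t]; group⟩
  refine ⟨a, X9P.LL_le_of h1 fun t n x hx => ?_⟩
  obtain ⟨c, hc, e, rfl⟩ := a t n
  have := h2 (show c⁻¹ * x * c⁻¹⁻¹ ∈ BB z s by simpa [mul_assoc] using NW.B_conj (inv_mem e) hx)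
  simpa [mul_assoc] using mul_mem (mul_mem hc this) (inv_mem hc)

end

end Cfsg.Lib.X9
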