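import Cfsg.Agent.X9.Ch

/-!
# Charts: a counting condition for points in the image of `Q_z ∩ Q_s`
-/

set_option autoImplicit false

universe u

namespace Cfsg.Lib.X9

open Subgroup Cfsg.Lib.Local Cfsg.Lib.Solv Module Cfsg.Lib.Spor Cfsg.Lib.LX V8
open scoped Pointwise commutatorElement

variable {G : Type u} [Group G] [Finite G] {z s w : G}

namespace IV

theorem card_le_mul {R R₀ : Subgroup G} {f : G → ℕ} (t : Finset ℕ) (h1 : ∀ r ∈ R, f r ∈ t)
    (h2 : ∀ r ∈ R, ∀ r' ∈ R, f r = f r' → r⁻¹ * r' ∈ R₀) : Nat.card R ≤ t.card * Nat.card R₀ := by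
  have := Nat.card_le_card_of_injective (fun r : R => ((⟨f r, h1 r r.2⟩,
    ⟨(Function.invFunOn f R (f r))⁻¹ * r, h2 _ (Function.invFunOn_mem ⟨r, r.2, rfl⟩) _ r.2
      (Function.invFunOn_eq ⟨r, r.2, rfl⟩)⟩) : t × R₀)) fun r r' e => by
    simp only [Prod.mk.injEq, Subtype.mk.injEq] at e
    rw [e.1, mul_right_inj] at e
    exact Subtype.ext e.2
  simpa only [Nat.card_prod, Nat.card_eq_fintype_card, Fintype.card_coe] using this

theorem card32 {S : Sh (qOf z) z V8} (hy : Hy S) (c : IsConj z s) (n : NW s w) :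
    Nat.card ↥(qOf s ⊓ qOf w) = 32 := by
  obtain ⟨g, rfl⟩ := isConj_iff.1 c
  obtain ⟨w, rfl⟩ : ∃ w', w = g * w' * g⁻¹ := ⟨g⁻¹ * w * g, by group⟩
  have n' : NW z w := by simpa [mul_assoc] using n.conj g⁻¹
  rw [(S.cj g).card_of_mem inf_le_left ⟨n.pre.mem, n.zs⟩]
  exact congrArg (fun n => 2 ^ (n + 1)) (X9O.t1_cj (hy.t1 finrank_eq n') g).dimE

end IV

variable {S : Sh (qOf z) z V8}

theorem Ch.iv {qt : ℕ} (h : Ch qt S s) (o : okE qt = true) (hy : Hy S) (n : NW z w)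
    (m : bt Em (S.π w).1 = true) (ne : S.π w ≠ V8.mk 255) (fB fE : ℕ → Bool)
    (hB : ∀ u < 8, ∀ a ∈ BB z w, Act S a (bm u) → fB u = true)
    (hE : ∀ e : V8, e ∈ S.E w → fE e.1 = true) :
    16 ≤ ((List.range 8).filter fB).length * (EL.filter fE).length := by
  classical
  have k : NW s w := ⟨h.nw.ps, h.nw.cj.symm.trans n.cj, (h.nw.mem_E S n.mem).1 (h.E_of m),
    fun e => ne (e ▸ h.p)⟩
  have c : ∀ r ∈ qOf s ⊓ qOf w, r ∈ centralizer ({z} : Set G) := fun r hr =>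
    mem_C.2 (k.E_comm hr.1 hr.2 h.nw.zs n.zs)
  have e : ∀ r : G, ∃ u, r ∈ qOf s ⊓ qOf w → u < 8 ∧ Act S r (bm u) := fun r => by
    by_cases hr : r ∈ qOf s ⊓ qOf w
    · exact (h.B' r ⟨hr.1, c r hr⟩).imp fun _ a _ => a
    · exact ⟨0, fun a => (hr a).elim⟩
  choose f hf using e
  have h1 := IV.card_le_mul (R₀ := qOf z ⊓ (qOf s ⊓ qOf w)) (f := f)
    ((List.range 8).filter fB).toFinset (fun r hr => List.mem_toFinset.2 (List.mem_filter.2
      ⟨List.mem_range.2 (hf r hr).1, hB _ (hf r hr).1 r ⟨hr.2, c r hr⟩ (hf r hr).2⟩))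
    fun r hr r' hr' e => mem_inf.2 ⟨(hf r hr).2.mem_Q (e ▸ (hf r' hr').2), mul_mem (inv_mem hr) hr'⟩
  have l : ∀ v : V8, bt Em v.1 = true → v.1 ∈ EL := by decide +kernel
  have h2 := Nat.card_le_card_of_injective (fun v : S.img (qOf z ⊓ (qOf s ⊓ qOf w)) =>
    (⟨v.1.1, List.mem_toFinset.2 (List.mem_filter.2 ⟨l _ ((h.mem_E o).1
      (S.img_mono (inf_le_inf_left _ inf_le_left) v.2)),
      hE _ (S.img_mono (inf_le_inf_left _ inf_le_right) v.2)⟩)⟩ : (EL.filter fE).toFinset))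
    fun v v' e => Subtype.ext (V8.ext (congrArg Subtype.val e))
  rw [IV.card32 hy h.nw.cj k, S.card_of_mem inf_le_left (mem_inf.2 ⟨S.pre.mem, mem_inf.2 ⟨h.nw.zs, n.zs⟩⟩),
    pow_succ,
    ← card_eq_pow] at h1
  rw [Nat.card_eq_fintype_card (α := (EL.filter fE).toFinset), Fintype.card_coe] at h2
  have h3 := Nat.mul_le_mul (List.toFinset_card_le ((List.range 8).filter fB))
    (h2.trans (List.toFinset_card_le _))
  rw [← mul_assoc] at h1
  omega

end Cfsg.Lib.X9
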