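import Cfsg.Agent.X9.En
import Cfsg.Agent.X9.IV

/-!
# Certificates which refute an element of `Q_w ∩ C(z)`
-/

set_option autoImplicit false

universe u

namespace Cfsg.Lib.X9

open Subgroup Cfsg.Lib.Local Cfsg.Lib.Solv Module Cfsg.Lib.Spor Cfsg.Lib.LX V8
open scoped Pointwise commutatorElement

noncomputable section

/-- The reversed word. -/
def rv (w : ℕ) : ℕ := Nat.rec (motive := fun _ => ℕ → ℕ → ℕ) (fun _ a => a)
  (fun _ ih w a => cond (Nat.beq w 0) a (frc (Nat.shiftRight w 4) fun w' =>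
    frc (Nat.add (Nat.mul a 16) (Nat.land w 15)) (ih w'))) 16 w 0
/-- `M B_u = B_v M`. -/
def it (M u v : ℕ) : Bool := allN 8 fun i => Nat.beq (col M (Nat.xor i u)) (ap (bm v) (col M i))
/-- The matrix `b` is not induced by `Q_w ∩ C(z)`, where `u` is the vector of `w`. -/
def nb (qt : ℕ) (l : List ℕ) (u b r : ℕ) : Bool := frc (Nat.shiftRight r 2) fun d =>
  cond (Nat.beq (Nat.land r 3) 0) (!Nat.beq (ap b u) u)
  (cond (Nat.beq (Nat.land r 3) 1) (!Nat.beq (mu b b) idM)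
  (cond (Nat.beq (Nat.land r 3) 2)
    (frc (Nat.mod d 256) fun v => frc (Nat.mod (Nat.shiftRight d 8) 256) fun v' =>
      Nat.beq (ap b v) v && Nat.beq (ap b v') v' && bq qt v v' && !Nat.beq (mu b idM) idM)
    (frc (ev l d) fun g => frc (ev l (rv d)) fun g' => frc (mu g (mu b g')) fun c =>
      Nat.beq (mu g g') idM && Nat.beq (ap g u) u && !Nat.beq (mu c b) (mu b c))))
/-- A word fixes the point and does not normalise `B`. -/
def cw (l : List ℕ) (w : ℕ) : Bool := frc (ev l w) fun M =>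
  Nat.beq (ap M 255) 255 && anyN 8 fun u => allN 8 fun v => !it M u v
/-- The count. -/
def sm (u : ℕ) (fB fE : ℕ → Bool) : Bool := bt Em u && !Nat.beq u 255 &&
  Nat.blt (((List.range 8).filter fB).length * (EL.filter fE).length) 16
/-- A word moves the point into `E` and the intersections are too small. -/
def ci (l : List ℕ) (w : ℕ) : Bool := frc (ev l w) fun M => frc (ev l (rv w)) fun M' =>
  Nat.beq (mu M M') idM && sm (ap M 255) (fun v => anyN 8 fun u => it M u v) fun e => bt Em (ap M' e)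
/-- The same for the point `u` moved into `E`. -/
def cv (qt : ℕ) (l : List ℕ) (u A r : ℕ) : Bool := frc (Nat.mod r (2 ^ 48)) fun w =>
  frc (ev l w) fun T => frc (ev l (rv w)) fun T' => frc (ap T u) fun u' =>
  frc (mu T (mu A T')) fun A' => frc (Nat.mod (Nat.shiftRight r 48) 256) fun k =>
    Nat.beq (mu T T') idM && Nat.beq (ap A' k) k && !bt qt k && !Nat.beq (mu A' idM) idM &&
      sm u' (fun v => Nat.beq v 0 ||
        frc (Nat.mod (Nat.shiftRight r (Nat.add 8 (Nat.mul 48 v))) (2 ^ 48)) fun c =>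
          !nb qt l u' (cond (bt c 0) (mu A' (bm v)) (bm v)) (Nat.shiftRight c 1))
        fun e => !bq qt e k
/-- All certificates. -/
def chk (qt : ℕ) (l : List ℕ) (u A c : ℕ) : Bool := frc (Nat.shiftRight c 3) fun d =>
  cond (Nat.beq (Nat.land c 7) 1) (cw l d) (cond (Nat.beq (Nat.land c 7) 2) (ci l d)
    (cond (Nat.beq (Nat.land c 7) 3) (nb qt l u A d)
      (cond (Nat.beq (Nat.land c 7) 4) (cv qt l u A d) false)))

theorem rv_eq_1' : type_of% @rv.eq_1 := @rv.eq_1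
theorem it_eq_1' : type_of% @it.eq_1 := @it.eq_1
theorem nb_eq_1' : type_of% @nb.eq_1 := @nb.eq_1
theorem cw_eq_1' : type_of% @cw.eq_1 := @cw.eq_1
theorem sm_eq_1' : type_of% @sm.eq_1 := @sm.eq_1
theorem ci_eq_1' : type_of% @ci.eq_1 := @ci.eq_1
theorem cv_eq_1' : type_of% @cv.eq_1 := @cv.eq_1
theorem chk_eq_1' : type_of% @chk.eq_1 := @chk.eq_1

theorem mu_pk (M N : ℕ) : mu M N = pk fun v => lin M (lin N v) :=
  pk8_congr (f := fun i => ap M (col N i)) (g := fun i => (lin M (lin N (bs i))).1) fun i hi => by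
    rw [lin_val, lin_bs _ hi]

theorem pk_id : pk (fun v => v) = idM := by decide +kernel

theorem mu_congr {M N M' N' : ℕ} (h : ∀ v, lin M (lin N v) = lin M' (lin N' v)) :
    Nat.beq (mu M N) (mu M' N') = true := by
  rw [mu_pk, mu_pk, funext h, Nat.beq_refl]

theorem mu_eq_id {M N : ℕ} (h : ∀ v, lin M (lin N v) = v) : Nat.beq (mu M N) idM = true := by
  rw [mu_pk, funext h, pk_id, Nat.beq_refl]

theorem bm_bs : ∀ u < 8, ∀ i < 8, Nat.xor i u < 8 ∧ lin (bm u) (bs i) = bs (Nat.xor i u) := by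
  decide +kernel

theorem it_iff {M u v : ℕ} (hu : u < 8) :
    it M u v = true ↔ ∀ y, lin M (lin (bm u) y) = lin (bm v) (lin M y) := by
  have k : ∀ i < 8, Nat.beq (col M (Nat.xor i u)) (ap (bm v) (col M i)) = true ↔
      lin M (lin (bm u) (bs i)) = lin (bm v) (lin M (bs i)) := fun i hi => by
    rw [(bm_bs u hu i hi).2, ← lin_bs _ (bm_bs u hu i hi).1, ← lin_bs _ hi, ← lin_val, Nat.beq_eq]
    exact ⟨V8.ext, fun e => by rw [e]⟩
  rw [it, allN_iff]
  exact ⟨fun h => ext8 (f := fun y => lin M (lin (bm u) y)) (g := fun y => lin (bm v) (lin M y))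
    (fun _ _ => by rw [lin_add, lin_add]) (fun _ _ => by rw [lin_add, lin_add])
    fun i hi => (k i hi).1 (h i hi), fun h i hi => (k i hi).2 (h _)⟩

theorem fix_mk {b v : ℕ} (h : Nat.beq (ap b (v % 256)) (v % 256) = true) :
    lin b (V8.mk v) = V8.mk v := V8.ext (Nat.eq_of_beq_eq_true h)

variable {G : Type u} [Group G] [Finite G] {z s w a g : G} {S : Sh (qOf z) z V8} {qt : ℕ}
  {l : List ℕ}

omit [Finite G] in
theorem Act.cj {M M' A : ℕ} (h : Act S g M) (e : ∀ v, lin M (lin M' v) = v) (k : Act S a A) :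
    Act S (g * a * g⁻¹) (mu M (mu A M')) := mul_assoc g a _ ▸ h.mul (k.mul (h.inv e))

omit [Finite G] in
theorem conj_B (n : NW z w) (hg : g ∈ centralizer ({z} : Set G)) (e : S.ρ g (S.π w) = S.π w)
    (ha : a ∈ BB z w) : ∃ a' ∈ BB z w, ∀ v, S.ρ a' v = S.ρ (g * a * g⁻¹) v := by
  obtain ⟨y, hy, c⟩ := n.exists_cent S hg (S.N_eq_zero.2 e)
  have hy' := qOf_le z hy
  refine ⟨_, NW.B_conj' (mul_mem hg hy') c ha, fun v => ?_⟩
  rw [mul_inv_rev, S.ρ_mul (mul_mem (mul_mem hg hy') ha.2) (mul_mem (inv_mem hy') (inv_mem hg)),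
    S.ρ_mul (mul_mem hg hy') ha.2, X9O.ρ_mul_mem S hg hy, S.ρ_mul (inv_mem hy') (inv_mem hg),
    S.ρ_of_mem (inv_mem hy), S.ρ_mul (mul_mem hg ha.2) (inv_mem hg), S.ρ_mul hg ha.2]

theorem Hy.freeB (h : Hy S) (n : NW z w) (ha : a ∈ BB z w) (hQ : a ∉ qOf z) {v : V8}
    (hv : S.N a v = 0) : ∃ u, S.N a u = v := by
  have e := LinearMap.finrank_range_add_finrank_ker (S.N a)
  have d := (h.t1 finrank_eq n).dimK a ha hQ
  rw [finrank_eq, d] at e
  have : v ∈ LinearMap.range (S.N a) := by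
    rw [Submodule.eq_of_le_of_finrank_le (S.range_le_ker ha.2 (n.sq_mem ha)) (by rw [d]; omega)]
    exact hv
  exact this

omit [Finite G] in
theorem Act.not_mem {b : ℕ} (h : Act S a b) (e : Nat.beq (mu b idM) idM = false) : a ∉ qOf z :=
  fun m => by
    rw [mu_eq_id fun v => by rw [lin_id, ← h.2, S.ρ_of_mem m]] at e
    exact absurd e (by decide)

theorem nb_false (h : Ch qt S s) (hy : Hy S) (hl : ∀ M ∈ l, In S M) (n : NW z w) (ha : a ∈ BB z w)
    {b : ℕ} (e : Act S a b) (r : ℕ) : nb qt l (S.π w).1 b r = false := by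
  have fx : ∀ {a}, a ∈ BB z w → S.ρ a (S.π w) = S.π w := fun k =>
    S.N_eq_zero.1 (n.N_s S k.2 (n.B_le k))
  rw [nb]
  simp only [frc_eq]
  cases Nat.beq (Nat.land r 3) 0
  swap
  · rw [cond_true, ← lin_val, ← e.2, fx ha, Nat.beq_refl]; rfl
  cases Nat.beq (Nat.land r 3) 1
  swap
  · rw [cond_false, cond_true, mu_eq_id fun v => by
      rw [← e.2, ← e.2, ← S.ρ_mul ha.2 ha.2, S.ρ_of_mem (n.sq_mem ha)]]; rfl
  rw [cond_false, cond_false, ← Bool.not_eq_true]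
  cases Nat.beq (Nat.land r 3) 2
  swap
  · simp only [cond_true, Bool.and_eq_true, Bool.not_eq_true']
    rintro ⟨⟨⟨c1, c2⟩, c3⟩, c4⟩
    have f1 := (e.2 _).trans (fix_mk c1)
    have f2 := (e.2 _).trans (fix_mk c2)
    obtain ⟨y, hy'⟩ := hy.freeB n ha (e.not_mem c4) (S.N_eq_zero.2 f1)
    have := S.b_N_fix ha.2 (S.N_eq_zero.2 f2) y
    rw [hy', h.b0] at this
    exact absurd (this.symm.trans c3) Bool.false_ne_true
  · simp only [cond_false, Bool.and_eq_true, Bool.not_eq_true']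
    rintro ⟨⟨c1, c2⟩, c3⟩
    obtain ⟨g, k⟩ := In.ev hl (Nat.shiftRight r 2)
    obtain ⟨a', ha', f⟩ := conj_B n k.1 ((k.2 _).trans (V8.ext (Nat.eq_of_beq_eq_true c2))) ha
    have t := fun v => (f v).trans ((k.cj (lin_of_mu c1) e).2 v)
    rw [mu_congr fun v => by
      rw [← t, ← t, ← e.2, ← e.2, S.ρ_eq a', S.ρ_eq a, S.ρ_eq a (S.ρ a' v), S.ρ_eq a' v, map_add,
        map_add, n.N_comm S ha' ha]
      abel] at c3
    exact absurd c3 (by decide)

theorem cw_false (h : Ch qt S s) (hl : ∀ M ∈ l, In S M) (r : ℕ) : cw l r = false := by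
  rw [cw, frc_eq, ← Bool.not_eq_true, Bool.and_eq_true, anyN_iff]
  rintro ⟨c1, u, hu, c2⟩
  obtain ⟨g, k⟩ := In.ev hl r
  obtain ⟨a, ha, e⟩ := h.B u hu
  obtain ⟨a', ha', f⟩ := conj_B h.nw k.1 (by rw [h.p, k.2]; exact fix_mk (v := 255) c1) ha
  obtain ⟨v, hv, t⟩ := h.B' a' ha'
  have := allN_iff.1 c2 v hv
  rw [(it_iff hu).2 fun y => by
    rw [← t.2, f, ← k.2, ← k.2, ← e.2, S.ρ_mul (mul_mem k.1 ha.2) (inv_mem k.1), S.ρ_inv_ρ k.1,
      S.ρ_mul k.1 ha.2]] at this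
  exact absurd this (by decide)

theorem sm_false (h : Ch qt S s) (o : okE qt = true) (hy : Hy S) (n : NW z w) {fB fE : ℕ → Bool}
    (hB : ∀ u < 8, ∀ a ∈ BB z w, Act S a (bm u) → fB u = true)
    (hE : ∀ e : V8, e ∈ S.E w → fE e.1 = true) : sm (S.π w).1 fB fE = false := by
  rw [sm, ← Bool.not_eq_true]
  simp only [Bool.and_eq_true, Bool.not_eq_true', Nat.blt_eq]
  rintro ⟨⟨c1, c2⟩, c3⟩
  exact c3.not_ge (h.iv o hy n c1 (fun e => by rw [e] at c2; exact absurd c2 (by decide)) fB fE hB hE)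

theorem ci_false (h : Ch qt S s) (o : okE qt = true) (hy : Hy S) (hl : ∀ M ∈ l, In S M) (r : ℕ) :
    ci l r = false := by
  rw [ci, frc_eq, frc_eq, ← Bool.not_eq_true, Bool.and_eq_true]
  rintro ⟨c1, c2⟩
  obtain ⟨g, k⟩ := In.ev hl r
  have k' := k.inv (lin_of_mu c1)
  have e : ap (ev l r) 255 = (S.π (g * s * g⁻¹)).1 := by
    rw [← S.ρ_π g k.1 s h.nw.mem, h.p, k.2]; rfl
  rw [e, sm_false h o hy (h.nw.conj' k.1)] at c2
  · exact absurd c2 (by decide)
  · intro v _ a ha f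
    obtain ⟨u, hu, t⟩ := h.B' (g⁻¹ * a * g⁻¹⁻¹) (by
      simpa [mul_assoc] using NW.B_conj (inv_mem k.1) ha)
    refine anyN_iff.2 ⟨u, hu, (it_iff hu).2 fun y => ?_⟩
    rw [← t.2, ← f.2, ← k.2, ← k.2, inv_inv, S.ρ_mul (mul_mem k'.1 ha.2) k.1, S.ρ_mul k'.1 ha.2,
      S.ρ_ρ_inv k.1]
  · intro y hy
    rw [← lin_val, ← k'.2, ← h.mem_E o]
    simpa [mul_assoc] using NW.ρ_E S k'.1 hy

/-- The matrix `A` is induced by an element of type `c` of `Q_w ∩ C(z)`, `u` is the vector of `w`. -/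
def Sp (S : Sh (qOf z) z V8) (u A : ℕ) : Prop := ∃ w a, NW z w ∧ (S.π w).1 = u ∧ a ∈ BB z w ∧
  Act S a A ∧ ∀ v, S.b v (lin A v) = S.b v (S.π w)

theorem Sp_eq_1' : type_of% @Sp.eq_1 := @Sp.eq_1

omit [Finite G] in
theorem Sp.cj {u A T T' : ℕ} (h : Sp S u A) (k : In S T) (e : ∀ v, lin T (lin T' v) = v) :
    Sp S (ap T u) (mu T (mu A T')) := by
  obtain ⟨w, a, n, rfl, ha, f, c⟩ := h
  obtain ⟨g, k⟩ := k
  refine ⟨_, _, n.conj' k.1, by rw [← S.ρ_π g k.1 w n.mem, k.2]; rfl, NW.B_conj k.1 ha, k.cj e f,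
    fun v => ?_⟩
  rw [lin_mu, lin_mu, ← S.ρ_π g k.1 w n.mem, ← k.2, ← e v, ← k.2, S.b_ρ k.1, S.b_ρ k.1, k.2,
    lin_inv e, c]

theorem cv_false (h : Ch qt S s) (o : okE qt = true) (hy : Hy S) (hl : ∀ M ∈ l, In S M) {u A : ℕ}
    (p : Sp S u A) (r : ℕ) : cv qt l u A r = false := by
  rw [cv, ← Bool.not_eq_true]
  simp only [frc_eq, Bool.and_eq_true, Bool.not_eq_true']
  rintro ⟨⟨⟨⟨c1, c2⟩, c3⟩, c4⟩, c5⟩
  obtain ⟨w, a, n, e, ha, f, c⟩ := p.cj (In.ev hl _) (lin_of_mu c1)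
  rw [← e, sm_false h o hy n] at c5
  · exact absurd c5 (by decide)
  · intro v _ b hb t
    rw [Bool.or_eq_true, Bool.not_eq_true']
    refine Or.inr ?_
    cases bt _ 0
    exacts [nb_false h hy hl n hb t _, nb_false h hy hl n (mul_mem ha hb) (f.mul t) _]
  · intro y m
    obtain ⟨x, hx⟩ := hy.freeB n ha (f.not_mem c4) (S.N_eq_zero.2 ((f.2 _).trans (fix_mk c2)))
    have q0 : S.q (S.N a x) = 0 := by rw [hx, h.q0]; exact c3
    rw [S.q_N ha.2, S.N_apply, map_add, S.b_self, add_zero, f.2, c] at q0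
    have := n.b_E S m (hx ▸ n.N_perp S ha q0)
    rw [h.b0] at this
    rw [Bool.not_eq_true']
    exact this

theorem chk_false (h : Ch qt S s) (o : okE qt = true) (hy : Hy S) (hl : ∀ M ∈ l, In S M) {u A : ℕ}
    (p : Sp S u A) (c : ℕ) : chk qt l u A c = false := by
  have := cv_false h o hy hl p
  obtain ⟨w, a, n, rfl, ha, f, -⟩ := p
  rw [chk, frc_eq, cw_false h hl, ci_false h o hy hl, nb_false h hy hl n ha f, this]
  simp only [Bool.cond_self]

end

end Cfsg.Lib.X9
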