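import Cfsg.Agent.X9.Ck

/-!
# Change of charts, the steps of the classification
-/

set_option autoImplicit false

universe u

namespace Cfsg.Lib.X9

open Subgroup Cfsg.Lib.Local Cfsg.Lib.Solv Module Cfsg.Lib.Spor Cfsg.Lib.LX V8
open scoped Pointwise commutatorElement

noncomputable section

/-- The matrix `κ` with inverse `κ'` preserves the form, the point and `B`. -/
def okK (qt κ κ' : ℕ) : Bool := Nat.beq (mu κ κ') idM && (allN 256 fun v => bt qt (ap κ v) == bt qt v) &&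
  Nat.beq (ap κ 255) 255 && (allN 8 fun u => anyN 8 fun v => it κ u v) &&
    allN 8 fun v => anyN 8 fun u => it κ u v
/-- `B_1` is of type `c`. -/
def okC (qt : ℕ) : Bool := allN 256 fun v => bq qt v (ap (bm 1) v) == bq qt v 255
/-- A word is the conjugate of `γ` under a change of charts. -/
def nz (qt : ℕ) (l : List ℕ) (d γ : ℕ) : Bool := frc (Nat.mod d (2 ^ 64)) fun κ =>
  Nat.beq (mu (ev l (Nat.shiftRight d 128)) κ) (mu κ γ) &&
    frc (Nat.mod (Nat.shiftRight d 64) (2 ^ 64)) (okK qt κ)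
/-- A test along two lists. -/
def all2 (f : ℕ → ℕ → Bool) (L : List ℕ) : List ℕ → Bool :=
  List.rec (motive := fun _ => List ℕ → Bool) (fun _ => true)
    (fun a _ ih l => List.rec (motive := fun _ => Bool) false
      (fun c l' _ => cond (f a c) (ih l') false) l) L
/-- The involutions outside `sv` are refuted. -/
def ck1 (qt : ℕ) (sv L cs : List ℕ) : Bool :=
  all2 (fun A c => cond (Nat.beq c 0) (memN A sv) (chk qt (A :: BL) 1 A c)) L cs
/-- The involutions in `sv`, moved to the point `u`, are refuted or give a generator in `tg`. -/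
def ck2 (qt : ℕ) (l tg : List ℕ) (u U : ℕ) (sv cs : List ℕ) : Bool :=
  okK qt U U && Nat.beq (ap U 1) u && all2 (fun A c => frc (mu U (mu A U)) fun A' =>
    cond (Nat.beq (Nat.land c 7) 5) (tg.any (nz qt (A' :: l) (Nat.shiftRight c 3)))
      (chk qt (A' :: l) u A' c)) sv cs
/-- The singular vectors outside `pts` are moved into `rs`. -/
def ck3 (qt γ pts W : ℕ) (rs : List ℕ) : Bool := allN 256 fun y =>
  bt pts y || bt qt y || Nat.beq y 0 ||
    memN (ap (ev (BL ++ [γ]) (Nat.mod (Nat.shiftRight W (Nat.mul 32 y)) (2 ^ 32))) y) rs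

theorem okK_eq_1' : type_of% @okK.eq_1 := @okK.eq_1
theorem okC_eq_1' : type_of% @okC.eq_1 := @okC.eq_1
theorem nz_eq_1' : type_of% @nz.eq_1 := @nz.eq_1
theorem all2_eq_1' : type_of% @all2.eq_1 := @all2.eq_1
theorem ck1_eq_1' : type_of% @ck1.eq_1 := @ck1.eq_1
theorem ck2_eq_1' : type_of% @ck2.eq_1 := @ck2.eq_1
theorem ck3_eq_1' : type_of% @ck3.eq_1 := @ck3.eq_1

theorem all2_spec {f : ℕ → ℕ → Bool} {L l : List ℕ} (h : all2 f L l = true) {a : ℕ} (ha : a ∈ L) :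
    ∃ c, f a c = true := by
  induction L generalizing l with
  | nil => simp at ha
  | cons b L ih =>
    cases l with
    | nil => exact absurd h Bool.false_ne_true
    | cons c l =>
      change cond (f b c) (all2 f L l) false = true at h
      rw [Bool.cond_false_right, Bool.and_eq_true] at h
      rcases List.mem_cons.1 ha with rfl | ha
      exacts [⟨c, h.1⟩, ih h.2 ha]

variable {G : Type u} [Group G] {z s w : G} {S : Sh (qOf z) z V8} {qt : ℕ}

theorem Ch.map (h : Ch qt S s) (hy : Hy S) {κ κ' : ℕ} (o : okK qt κ κ' = true) :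
    ∃ S' : Sh (qOf z) z V8, Ch qt S' s ∧ Hy S' ∧ (∀ g v, lin κ (S'.ρ g v) = S.ρ g (lin κ v)) ∧
      (∀ x, lin κ (S'.π x) = S.π x) ∧ (∀ u v, S'.b u v = S.b (lin κ u) (lin κ v)) ∧
        ∀ v, lin κ (lin κ' v) = v := by
  simp only [okK, Bool.and_eq_true, allN_iff, anyN_iff] at o
  obtain ⟨⟨⟨⟨o1, o2⟩, o3⟩, o4⟩, o5⟩ := o
  have e := lin_of_mu o1
  have i : Function.Injective (lin κ) := Function.LeftInverse.injective (lin_inv e)
  have r : ∀ g v, lin κ ((S.map (linE κ κ' e (lin_inv e))).ρ g v) = S.ρ g (lin κ v) := fun _ _ => e _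
  have k : ∀ {a u v}, u < 8 → it κ u v = true → Act S a (bm v) →
      Act (S.map (linE κ κ' e (lin_inv e))) a (bm u) := fun hu t f =>
    ⟨f.1, fun y => i (by rw [r, f.2, (it_iff hu).1 t])⟩
  refine ⟨S.map (linE κ κ' e (lin_inv e)), ⟨h.nw, fun v => ?_, i ?_, fun u hu => ?_, fun a ha => ?_⟩,
    hy.map _, r, fun _ => e _, fun _ _ => rfl, e⟩
  · exact (h.q (lin κ v)).trans (by rw [qz, qz, lin_val, beq_iff_eq.1 (o2 _ v.lt)])
  · exact (e _).trans (h.p.trans (fix_mk (v := 255) o3).symm)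
  · obtain ⟨v, hv, t⟩ := o4 u hu
    obtain ⟨a, ha, f⟩ := h.B v hv
    exact ⟨a, ha, k hu t f⟩
  · obtain ⟨v, hv, f⟩ := h.B' a ha
    obtain ⟨u, hu, t⟩ := o5 v hv
    exact ⟨u, hu, k hu t f⟩

/-- In some chart `γ` is induced. -/
def Gn (qt γ : ℕ) (z s : G) : Prop := ∃ S : Sh (qOf z) z V8, Ch qt S s ∧ Hy S ∧ In S γ

/-- In every chart in which `e₀` is a point one of the involutions `sv` occurs. -/
def P1 (qt : ℕ) (sv : List ℕ) (z s : G) : Prop := ∀ S : Sh (qOf z) z V8, Ch qt S s → Hy S →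
  (∃ w, NW z w ∧ S.π w = V8.mk 1) → ∃ A ∈ sv, Sp S 1 A

theorem Gn_eq_1' : type_of% @Gn.eq_1 := @Gn.eq_1
theorem P1_eq_1' : type_of% @P1.eq_1 := @P1.eq_1

theorem Ch.gn (h : Ch qt S s) (hy : Hy S) {l : List ℕ} (hl : ∀ M ∈ l, In S M) {d γ : ℕ}
    (o : nz qt l d γ = true) : Gn qt γ z s := by
  rw [nz, frc_eq, frc_eq, Bool.and_eq_true] at o
  obtain ⟨S', a, b, c, -, -, e⟩ := h.map hy o.2
  obtain ⟨g, k⟩ := In.ev hl (Nat.shiftRight d 128)
  exact ⟨S', a, b, g, k.1, fun v => Function.LeftInverse.injective (lin_inv e) (by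
    rw [c, k.2, ← lin_mu, Nat.eq_of_beq_eq_true o.1, lin_mu])⟩

theorem Sp.in {u A : ℕ} (h : Sp S u A) : In S A := by
  obtain ⟨_, a, -, -, -, f, -⟩ := h
  exact ⟨a, f⟩

theorem Ch.in_BL (h : Ch qt S s) : ∀ M ∈ BL, In S M := fun M m =>
  (h.inBL M m).imp fun _ k => k.2

theorem cond_inj {a b : Bool} (h : (cond a 1 0 : ZMod 2) = cond b 1 0) : a = b := by
  revert a b; decide

variable [Finite G]

theorem Ch.exists_c (h : Ch qt S s) (hy : Hy S) (o : okC qt = true) (n : NW z w) :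
    ∃ a ∈ BB z w, ∀ v, S.b v (S.ρ a v) = S.b v (S.π w) := by
  obtain ⟨c, hc, rfl⟩ := hy.orb finrank_eq h.nw n
  obtain ⟨a, ha, f⟩ := h.B 1 (by decide)
  refine ⟨_, NW.B_conj hc ha, fun v => ?_⟩
  rw [← S.ρ_π c hc s h.nw.mem, S.ρ_mul (mul_mem hc ha.2) (inv_mem hc), S.ρ_mul hc ha.2,
    ← S.ρ_ρ_inv hc v, S.ρ_inv_ρ hc, S.b_ρ hc, S.b_ρ hc, f.2, h.p, h.b, h.b, lin_val,
    beq_iff_eq.1 (allN_iff.1 o _ (lt _))]
  rfl

theorem p1_of {R : ℕ} {sv L cs : List ℕ} (o1 : okE qt = true) (o2 : okC qt = true)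
    (o3 : okR qt R = true) (o4 : en qt R L 7 1 1 = true) (o5 : ck1 qt sv L cs = true) :
    P1 qt sv z s := by
  rintro S h hy ⟨w, n, e⟩
  obtain ⟨a, ha, f⟩ := h.exists_c hy o2 n
  have p : Sp S 1 (pk (S.ρ a)) := ⟨w, a, n, by rw [e]; rfl, ha, act_pk ha.2, fun v => by
    rw [lin_pk (map_add _), f]⟩
  have c : Cc qt (S.ρ a) := ⟨fun v => cond_inj ((h.q _).symm.trans ((S.q_ρ ha.2 v).trans (h.q v))),
    fun u v => cond_inj (by rw [← h.b, ← h.b, S.b_ρ ha.2]),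
    fun u v => cond_inj (by
      rw [← h.b, ← h.b, S.ρ_eq, S.ρ_eq, map_add, map_add, LinearMap.add_apply, n.b_N S ha]),
    fun v => cond_inj (by rw [← h.b, f, e, h.b]; rfl), by
      rw [show bs 0 = S.π w from e.symm, S.N_eq_zero.1 (n.N_s S ha.2 (n.B_le ha)), e]; rfl⟩
  obtain ⟨d, k⟩ := all2_spec o5 (c.mem o3 o4)
  rw [chk_false h o1 hy (List.forall_mem_cons.2 ⟨p.in, h.in_BL⟩) p] at k
  rw [Bool.cond_false_right, Bool.and_eq_true] at k
  exact ⟨_, memN_spec k.2, p⟩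

theorem Ch.step (h : Ch qt S s) (hy : Hy S) (o1 : okE qt = true) {sv l tg cs : List ℕ} {u U : ℕ}
    (H : P1 qt sv z s) (hl : ∀ M ∈ l, In S M) (o : ck2 qt l tg u U sv cs = true)
    (n : ∃ w, NW z w ∧ (S.π w).1 = u) : ∃ γ ∈ tg, Gn qt γ z s := by
  rw [ck2, Bool.and_eq_true, Bool.and_eq_true] at o
  obtain ⟨S', a, b, c, d, f, e⟩ := h.map hy o.1.1
  have i := Function.LeftInverse.injective (lin_inv e)
  obtain ⟨w, n, r⟩ := n
  obtain ⟨A, m, w, x, n, p1, p2, p3, p4⟩ := H S' a b ⟨w, n, i (V8.ext (by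
    rw [d, r]; exact (Nat.eq_of_beq_eq_true o.1.2).symm))⟩
  have p : Sp S u (mu U (mu A U)) := ⟨w, x, n, by
    rw [← d, lin_val, p1]; exact Nat.eq_of_beq_eq_true o.1.2, p2,
    ⟨p3.1, fun v => by rw [lin_mu, lin_mu, ← p3.2, c, e]⟩,
    fun v => by rw [lin_mu, lin_mu, ← d, ← e v, ← f, ← f, e, p4]⟩
  obtain ⟨t, k⟩ := all2_spec o.2 m
  have hl' := List.forall_mem_cons.2 ⟨p.in, hl⟩
  rw [frc_eq, chk_false h o1 hy hl' p, Bool.cond_false_right, Bool.and_eq_true, List.any_eq_true] at k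
  obtain ⟨γ, k1, k2⟩ := k.2
  exact ⟨γ, k1, h.gn hy hl' k2⟩

omit [Finite G] in
theorem Ch.in_app (h : Ch qt S s) {γ : ℕ} (g : In S γ) : ∀ M ∈ BL ++ [γ], In S M :=
  List.forall_mem_append.2 ⟨h.in_BL, List.forall_mem_singleton.2 g⟩

omit [Finite G] in
theorem Ch.close (h : Ch qt S s) (hy : Hy S) {γ pts W : ℕ} {rs : List ℕ} (g : In S γ)
    (o : ck3 qt γ pts W rs = true) :
    Sys qt γ pts S s ∨ ∃ u ∈ rs, ∃ w, NW z w ∧ (S.π w).1 = u := by
  refine or_iff_not_imp_right.2 fun k => ⟨h, hy, g, fun w n => ?_⟩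
  have := allN_iff.1 o _ (S.π w).lt
  simp only [Bool.or_eq_true] at this
  rcases this with ((e | e) | e) | e
  · exact e
  · exact absurd ((h.q0.1 (n.q_s S)).symm.trans e) Bool.false_ne_true
  · exact absurd (V8.ext (Nat.eq_of_beq_eq_true e)) (n.π_ne S)
  · obtain ⟨c, f⟩ := In.ev (h.in_app g) (Nat.mod (Nat.shiftRight W (Nat.mul 32 (S.π w).1)) (2 ^ 32))
    exact absurd ⟨_, memN_spec e, _, n.conj' f.1, by rw [← S.ρ_π c f.1 w n.mem, f.2]; rfl⟩ k

end

end Cfsg.Lib.X9
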