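import Cfsg.Agent.X9.Ch

/-!
# Enumeration of the involutions of type `c` with a given characteristic vector
-/

set_option autoImplicit false

namespace Cfsg.Lib.X9

open V8

noncomputable section

/-- All `256` bits. -/
def fl : ℕ := 0xffffffffffffffffffffffffffffffffffffffffffffffffffffffffffffffff
/-- A row times a coordinate. -/
def tw (R u i j : ℕ) : ℕ := Nat.mul (Nat.land (Nat.shiftRight u i) 1) (Nat.land (Nat.shiftRight R j) fl)
/-- The set of all `v` with `b(u, v) = 1`. -/
def ro (R u : ℕ) : ℕ :=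
  Nat.xor (Nat.xor (Nat.xor (tw R u 0 0) (tw R u 1 256)) (Nat.xor (tw R u 2 512) (tw R u 3 768)))
    (Nat.xor (Nat.xor (tw R u 4 1024) (tw R u 5 1280)) (Nat.xor (tw R u 6 1536) (tw R u 7 1792)))
/-- The table of rows is correct, the basis is singular. -/
def okR (qt R : ℕ) : Bool :=
  (allN 256 fun u => frc (ro R u) fun r => allN 256 fun v => bt r v == bq qt u v) &&
    allN 8 fun i => !bt qt (2 ^ i)
/-- A set or its complement. -/
def cm (r : ℕ) (c : Bool) : ℕ := cond c r (Nat.xor r fl)
/-- The candidates for the column `i`. -/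
def mask (qt R i M : ℕ) : ℕ := frc (Nat.pow 2 i) fun e => Nat.rec
  (Nat.land (cm qt false) (cm (ro R e) (bq qt e 1)))
  (fun j ih => frc (col M j) fun c => frc (Nat.pow 2 j) fun e' =>
    Nat.land ih (Nat.land (cm (ro R c) (bq qt e' e)) (cm (ro R e') (bq qt c e)))) i
/-- A test on all elements of a set. -/
def tree (f : ℕ → Bool) (d : ℕ) : ℕ → ℕ → Bool := Nat.rec
  (fun m o => cond (Nat.beq m 0) true (f o))
  (fun d ih m o => cond (Nat.beq m 0) true (frc (Nat.pow 2 d) fun h =>
    frc (Nat.mod m (Nat.pow 2 h)) fun lo => frc (Nat.shiftRight m h) fun hi =>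
      frc (Nat.add o h) fun o' => cond (ih lo o) (ih hi o') false)) d
/-- Membership. -/
def memN (a : ℕ) (l : List ℕ) : Bool := List.rec false (fun x _ ih => cond (Nat.beq a x) true ih) l
/-- The search. -/
def en (qt R : ℕ) (L : List ℕ) (k : ℕ) : ℕ → ℕ → Bool := Nat.rec (fun _ M => memN M L)
  (fun _ ih i M => frc (mask qt R i M) fun m => frc (Nat.pow 256 i) fun s =>
    frc (Nat.succ i) fun i' => tree (fun v => frc (Nat.add M (Nat.mul v s)) (ih i')) 8 m 0) k

theorem fl_eq_1' : type_of% @fl.eq_1 := @fl.eq_1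
theorem tw_eq_1' : type_of% @tw.eq_1 := @tw.eq_1
theorem ro_eq_1' : type_of% @ro.eq_1 := @ro.eq_1
theorem okR_eq_1' : type_of% @okR.eq_1 := @okR.eq_1
theorem cm_eq_1' : type_of% @cm.eq_1 := @cm.eq_1
theorem mask_eq_1' : type_of% @mask.eq_1 := @mask.eq_1
theorem tree_eq_1' : type_of% @tree.eq_1 := @tree.eq_1
theorem memN_eq_1' : type_of% @memN.eq_1 := @memN.eq_1
theorem en_eq_1' : type_of% @en.eq_1 := @en.eq_1

theorem memN_spec {a : ℕ} {l : List ℕ} (h : memN a l = true) : a ∈ l := by
  induction l with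
  | nil => exact absurd h Bool.false_ne_true
  | cons x l ih =>
    change cond (Nat.beq a x) true (memN a l) = true at h
    cases e : Nat.beq a x
    · rw [e] at h; exact List.mem_cons_of_mem _ (ih h)
    · exact Nat.eq_of_beq_eq_true e ▸ List.mem_cons_self

theorem tree_spec {f : ℕ → Bool} {d m o : ℕ} (h : tree f d m o = true) {v : ℕ} (hv : v < 2 ^ d)
    (b : m.testBit v = true) : f (o + v) = true := by
  induction d generalizing m o v with
  | zero =>
    obtain rfl : v = 0 := by omega
    change cond (Nat.beq m 0) true (f o) = true at h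
    cases e : Nat.beq m 0
    · rwa [e] at h
    · simp [Nat.eq_of_beq_eq_true e] at b
  | succ d ih =>
    change cond (Nat.beq m 0) true (cond (tree f d (m % 2 ^ 2 ^ d) o)
      (tree f d (m >>> 2 ^ d) (o + 2 ^ d)) false) = true at h
    cases e : Nat.beq m 0
    · rw [e, cond_false, Bool.cond_false_right, Bool.and_eq_true] at h
      rcases lt_or_ge v (2 ^ d) with l | l
      · exact ih h.1 l (by rw [Nat.testBit_mod_two_pow, b]; simpa using l)
      · have := ih h.2 (v := v - 2 ^ d) (by omega) (by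
          rw [Nat.testBit_shiftRight, Nat.add_sub_cancel' l, b])
        rwa [add_assoc, Nat.add_sub_cancel' l] at this
    · simp [Nat.eq_of_beq_eq_true e] at b

theorem cm_spec {r v : ℕ} {c : Bool} (hv : v < 256) (h : bt r v = c) : (cm r c).testBit v = true := by
  rw [bt_eq] at h
  cases c
  · change (r ^^^ (2 ^ 256 - 1)).testBit v = true
    rw [Nat.testBit_xor, h, Nat.testBit_two_pow_sub_one]; simpa using hv
  · exact h

theorem pk8_congr {f g : ℕ → ℕ} (h : ∀ i < 8, f i = g i) : pk8 f = pk8 g := by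
  simp only [pk8, h 0, h 1, h 2, h 3, h 4, h 5, h 6, h 7, Nat.lt_add_one, Nat.ofNat_pos,
    Nat.one_lt_ofNat, Nat.reduceLT]

/-- The first columns. -/
def pm (f : V8 → V8) (i : ℕ) : ℕ := pk8 fun j => if j < i then (f (bs j)).1 else 0

theorem pm_eq_1' : type_of% @pm.eq_1 := @pm.eq_1

theorem pm_succ (f : V8 → V8) {i : ℕ} (h : i < 8) :
    pm f (i + 1) = pm f i + (f (bs i)).1 * 256 ^ i := by
  simp only [pm, pk8, Nat.add_eq, Nat.mul_eq]
  interval_cases i <;> simp <;> omega

theorem col_pm (f : V8 → V8) {i j : ℕ} (h : i ≤ 8) (hj : j < i) : col (pm f i) j = (f (bs j)).1 := by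
  rw [pm, col_pk8 (fun j => by split_ifs; exacts [lt _, by decide]) (by omega), if_pos hj]

/-- The conditions on the involution. -/
structure Cc (qt : ℕ) (f : V8 → V8) : Prop where
  q : ∀ v, bt qt (f v).1 = bt qt v.1
  b : ∀ u v, bq qt (f u).1 (f v).1 = bq qt u.1 v.1
  s : ∀ u v, bq qt u.1 (f v).1 = bq qt (f u).1 v.1
  c : ∀ v, bq qt v.1 (f v).1 = bq qt v.1 1
  x : (f (bs 0)).1 = 1

variable {qt R : ℕ} {f : V8 → V8}

theorem Cc.mask (h : Cc qt f) (o : okR qt R = true) {i : ℕ} (hi : i < 8) :
    (mask qt R i (pm f i)).testBit (f (bs i)).1 = true := by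
  rw [okR, Bool.and_eq_true] at o
  have r : ∀ u v : V8, bt (ro R u.1) v.1 = bq qt u.1 v.1 := fun u v => by
    have := allN_iff.1 o.1 _ u.lt
    rw [frc_eq] at this
    exact beq_iff_eq.1 (allN_iff.1 this _ v.lt)
  have k : ∀ n ≤ i, (Nat.rec (Nat.land (cm qt false) (cm (ro R (2 ^ i)) (bq qt (2 ^ i) 1)))
      (fun j ih => Nat.land ih (Nat.land (cm (ro R (col (pm f i) j)) (bq qt (2 ^ j) (2 ^ i)))
        (cm (ro R (2 ^ j)) (bq qt (col (pm f i) j) (2 ^ i))))) n : ℕ).testBit (f (bs i)).1 = true := by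
    intro n hn
    induction n with
    | zero =>
      change Nat.testBit (_ &&& _) _ = true
      rw [Nat.testBit_and, cm_spec (lt _) (by
        rw [h.q, bs_val hi]; simpa using allN_iff.1 o.2 i hi), cm_spec (lt _) (by
          rw [← bs_val hi, r, h.c])]
      rfl
    | succ n ih =>
      change Nat.testBit (_ &&& (_ &&& _)) _ = true
      have hn' : n < 8 := by omega
      rw [Nat.testBit_and, Nat.testBit_and, ih (by omega), col_pm f hi.le hn, cm_spec (lt _) (by
        rw [r, h.b, bs_val hi, bs_val hn']), cm_spec (lt _) (by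
          rw [← bs_val hn', r, h.s, bs_val hi])]
      rfl
  exact k i le_rfl

theorem Cc.en (h : Cc qt f) (o : okR qt R = true) {L : List ℕ} {k i : ℕ} (e : k + i = 8)
    (t : en qt R L k i (pm f i) = true) : pk f ∈ L := by
  induction k generalizing i with
  | zero =>
    obtain rfl : i = 8 := by omega
    rw [show pk f = pm f 8 from pk8_congr fun j hj => (if_pos hj).symm]
    exact memN_spec t
  | succ k ih =>
    refine ih (i := i + 1) (by omega) ?_
    rw [pm_succ f (by omega)]
    have := tree_spec (f := fun v => X9.en qt R L k (i + 1) (pm f i + v * 256 ^ i)) (d := 8) t (lt _)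
      (h.mask o (by omega))
    rwa [zero_add] at this

theorem Cc.mem (h : Cc qt f) (o : okR qt R = true) {L : List ℕ} (t : X9.en qt R L 7 1 1 = true) :
    pk f ∈ L :=
  h.en o (i := 1) rfl (by rwa [pm_succ f (i := 0) (by decide), h.x])

end

end Cfsg.Lib.X9
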