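import Cfsg.Agent.X9O.Sy
import Mathlib.Algebra.Module.ZMod

/-!
# The space `𝔽₂⁸` coded by numbers below `256`, matrices coded by their columns
-/

set_option autoImplicit false

namespace Cfsg.Lib.X9

open Module Cfsg.Lib.LX

/-- Vectors are numbers below `256`, addition is `xor`. -/
def V8 : Type := Fin 256

instance : DecidableEq V8 := inferInstanceAs (DecidableEq (Fin 256))
instance : Fintype V8 := inferInstanceAs (Fintype (Fin 256))

namespace V8

/-- The vector with a given code. -/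
def mk (n : ℕ) : V8 := (⟨n % 256, Nat.mod_lt _ (by decide)⟩ : Fin 256)

theorem ext {u v : V8} (h : u.1 = v.1) : u = v := Fin.ext h

theorem lt (v : V8) : v.1 < 256 := v.2

instance : Add V8 := ⟨fun u v => (⟨u.1 ^^^ v.1, Nat.xor_lt_two_pow (n := 8) u.2 v.2⟩ : Fin 256)⟩
instance : Zero V8 := ⟨(⟨0, by decide⟩ : Fin 256)⟩
instance : Neg V8 := ⟨id⟩

instance : AddCommGroup V8 where
  add_assoc _ _ _ := ext (Nat.xor_assoc ..)
  zero_add _ := ext (Nat.zero_xor _)
  add_zero _ := ext (Nat.xor_zero _)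
  neg_add_cancel _ := ext (Nat.xor_self _)
  add_comm _ _ := ext (Nat.xor_comm ..)
  nsmul := nsmulRec
  zsmul := zsmulRec

instance : Module (ZMod 2) V8 :=
  AddCommGroup.zmodModule fun x => by rw [two_nsmul]; exact ext (Nat.xor_self _)

theorem mk_eq_1' : type_of% @mk.eq_1 := @mk.eq_1

theorem add_val (u v : V8) : (u + v).1 = u.1 ^^^ v.1 := rfl
theorem zero_val : (0 : V8).1 = 0 := rfl
theorem mk_val {n : ℕ} (h : n < 256) : (mk n).1 = n := Nat.mod_eq_of_lt h
theorem mk_self (v : V8) : mk v.1 = v := ext (mk_val v.2)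
theorem card : Nat.card V8 = 256 := Nat.card_fin 256

theorem finrank_eq : finrank (ZMod 2) V8 = 8 :=
  Nat.pow_right_injective le_rfl ((card_eq_pow (V := V8)).symm.trans card)

end V8

open V8

noncomputable section

/-- Evaluate `x` first. -/
def frc {β : Type} (x : ℕ) (f : ℕ → β) : β := Nat.rec (f 0) (fun n _ => f n) (Nat.succ x)

theorem frc_eq {β : Type} (x : ℕ) (f : ℕ → β) : frc x f = f x := rfl

/-- A bit. -/
def bt (m i : ℕ) : Bool := Nat.beq (Nat.land (Nat.shiftRight m i) 1) 1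
/-- A column. -/
def col (M i : ℕ) : ℕ := Nat.land (Nat.shiftRight M (Nat.mul 8 i)) 255
/-- A column times a coordinate. -/
def tm (M v i j : ℕ) : ℕ :=
  Nat.mul (Nat.land (Nat.shiftRight v i) 1) (Nat.land (Nat.shiftRight M j) 255)
/-- A matrix applied to a vector. -/
def ap (M v : ℕ) : ℕ :=
  Nat.xor (Nat.xor (Nat.xor (tm M v 0 0) (tm M v 1 8)) (Nat.xor (tm M v 2 16) (tm M v 3 24)))
    (Nat.xor (Nat.xor (tm M v 4 32) (tm M v 5 40)) (Nat.xor (tm M v 6 48) (tm M v 7 56)))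
/-- The matrix with given columns. -/
def pk8 (f : ℕ → ℕ) : ℕ :=
  Nat.add (f 0) (Nat.mul 256 (Nat.add (f 1) (Nat.mul 256 (Nat.add (f 2) (Nat.mul 256
    (Nat.add (f 3) (Nat.mul 256 (Nat.add (f 4) (Nat.mul 256 (Nat.add (f 5) (Nat.mul 256
      (Nat.add (f 6) (Nat.mul 256 (f 7))))))))))))))
/-- The product. -/
def mu (M N : ℕ) : ℕ := frc M fun M => frc N fun N => pk8 fun i => frc (col N i) (ap M)
/-- The identity. -/
def idM : ℕ := 0x8040201008040201

theorem frc_eq_1' : type_of% @frc.eq_1 := @frc.eq_1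
theorem bt_eq_1' : type_of% @bt.eq_1 := @bt.eq_1
theorem col_eq_1' : type_of% @col.eq_1 := @col.eq_1
theorem tm_eq_1' : type_of% @tm.eq_1 := @tm.eq_1
theorem ap_eq_1' : type_of% @ap.eq_1 := @ap.eq_1
theorem pk8_eq_1' : type_of% @pk8.eq_1 := @pk8.eq_1
theorem mu_eq_1' : type_of% @mu.eq_1 := @mu.eq_1
theorem idM_eq_1' : type_of% @idM.eq_1 := @idM.eq_1

theorem bt_eq (m i : ℕ) : bt m i = m.testBit i := by
  have : Nat.land (Nat.shiftRight m i) 1 = (m >>> i) % 2 := Nat.and_one_is_mod _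
  rw [bt, this, Nat.testBit, Nat.one_and_eq_mod_two]
  rcases Nat.mod_two_eq_zero_or_one (m >>> i) with h | h <;> rw [h] <;> rfl

theorem tm_eq (M v i j : ℕ) : tm M v i j = if v.testBit i then M >>> j &&& 255 else 0 := by
  change (v >>> i &&& 1) * (M >>> j &&& 255) = _
  rw [Nat.and_one_is_mod, Nat.testBit, Nat.one_and_eq_mod_two]
  rcases Nat.mod_two_eq_zero_or_one (v >>> i) with h | h <;> simp [h]

theorem tm_lt (M v i j : ℕ) : tm M v i j < 2 ^ 8 := by
  rw [tm_eq]; split_ifs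
  exacts [Nat.and_lt_two_pow _ (by decide), by decide]

theorem tm_xor (M u v i j : ℕ) : tm M (u ^^^ v) i j = tm M u i j ^^^ tm M v i j := by
  simp only [tm_eq, Nat.testBit_xor]
  cases u.testBit i <;> cases v.testBit i <;> simp

theorem ap_lt (M v : ℕ) : ap M v < 256 :=
  have h := @Nat.xor_lt_two_pow
  h (n := 8) (h (h (tm_lt ..) (tm_lt ..)) (h (tm_lt ..) (tm_lt ..)))
    (h (h (tm_lt ..) (tm_lt ..)) (h (tm_lt ..) (tm_lt ..)))

theorem ap_xor (M u v : ℕ) : ap M (u ^^^ v) = ap M u ^^^ ap M v := by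
  simp only [ap, tm_xor, Nat.xor_eq]
  ac_rfl

theorem col_lt (M i : ℕ) : col M i < 256 := Nat.and_lt_two_pow (n := 8) _ (by decide)

theorem ap_pow (M : ℕ) {i : ℕ} (h : i < 8) : ap M (2 ^ i) = col M i := by
  simp only [ap, tm_eq, Nat.testBit_two_pow, Nat.xor_eq]
  interval_cases i <;> simp <;> rfl

theorem col_pk8 {f : ℕ → ℕ} (h : ∀ i, f i < 256) {i : ℕ} (hi : i < 8) : col (pk8 f) i = f i := by
  have e : ∀ M j, col M j = M / 2 ^ (8 * j) % 256 := fun M j => by
    change M >>> (8 * j) &&& (2 ^ 8 - 1) = _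
    rw [Nat.and_two_pow_sub_one_eq_mod, Nat.shiftRight_eq_div_pow]
  have h0 := h 0; have h1 := h 1; have h2 := h 2; have h3 := h 3
  have h4 := h 4; have h5 := h 5; have h6 := h 6; have h7 := h 7
  rw [e, pk8]
  simp only [Nat.add_eq, Nat.mul_eq]
  interval_cases i <;> omega

/-- The map given by a matrix. -/
def lin (M : ℕ) (v : V8) : V8 := (⟨ap M v.1, ap_lt M v.1⟩ : Fin 256)
/-- The basis. -/
def bs (i : ℕ) : V8 := mk (2 ^ i)
/-- The matrix of a map. -/
def pk (f : V8 → V8) : ℕ := pk8 fun i => (f (bs i)).1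

theorem lin_eq_1' : type_of% @lin.eq_1 := @lin.eq_1
theorem bs_eq_1' : type_of% @bs.eq_1 := @bs.eq_1
theorem pk_eq_1' : type_of% @pk.eq_1 := @pk.eq_1

theorem lin_val (M : ℕ) (v : V8) : (lin M v).1 = ap M v.1 := rfl

theorem lin_add (M : ℕ) (u v : V8) : lin M (u + v) = lin M u + lin M v := ext (ap_xor ..)

theorem bs_val {i : ℕ} (h : i < 8) : (bs i).1 = 2 ^ i :=
  mk_val (Nat.pow_lt_pow_right (n := 8) one_lt_two h)

theorem lin_bs (M : ℕ) {i : ℕ} (h : i < 8) : (lin M (bs i)).1 = col M i := by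
  rw [lin_val, bs_val h, ap_pow M h]

theorem V8.ind {P : V8 → Prop} (ha : ∀ u v, P u → P v → P (u + v)) (h : ∀ i < 8, P (bs i))
    (v : V8) : P v := by
  have h0 : P 0 := add_self' (bs 0) ▸ ha _ _ (h 0 (by decide)) (h 0 (by decide))
  have e : ∀ v : V8, v = ((List.range 8).map fun i => if v.1.testBit i then bs i else 0).sum := by
    decide +kernel
  rw [e v]
  refine List.sum_induction P ha h0 fun x hx => ?_
  obtain ⟨i, hi, rfl⟩ := List.mem_map.1 hx
  split_ifs
  exacts [h i (List.mem_range.1 hi), h0]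

theorem ext8 {W : Type*} [Add W] {f g : V8 → W} (hf : ∀ u v, f (u + v) = f u + f v)
    (hg : ∀ u v, g (u + v) = g u + g v) (h : ∀ i < 8, f (bs i) = g (bs i)) (v : V8) : f v = g v :=
  V8.ind (P := fun v => f v = g v) (fun u v a b => by rw [hf, hg, a, b]) h v

theorem lin_pk {f : V8 → V8} (hf : ∀ u v, f (u + v) = f u + f v) (v : V8) : lin (pk f) v = f v :=
  ext8 (lin_add _) hf (fun _ hi => ext ((lin_bs _ hi).trans (col_pk8 (fun _ => lt _) hi))) v

theorem lin_mu (M N : ℕ) (v : V8) : lin (mu M N) v = lin M (lin N v) :=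
  ext8 (g := fun v => lin M (lin N v)) (lin_add _) (fun u v => by rw [lin_add, lin_add])
    (fun i hi => ext (by
    rw [lin_bs _ hi, lin_val, lin_bs _ hi]
    exact col_pk8 (f := fun i => ap M (col N i)) (fun _ => ap_lt ..) hi)) v

theorem lin_id : ∀ v, lin idM v = v := by decide +kernel

theorem lin_of_mu {M N : ℕ} (h : Nat.beq (mu M N) idM = true) (v : V8) : lin M (lin N v) = v := by
  rw [← lin_mu, Nat.eq_of_beq_eq_true h, lin_id]

/-- The linear map given by a matrix. -/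
def linL (M : ℕ) : V8 →ₗ[ZMod 2] V8 := (AddMonoidHom.mk' (lin M) (lin_add M)).toZModLinearMap 2

/-- The linear automorphism given by a matrix and its inverse. -/
def linE (M N : ℕ) (h : ∀ v, lin M (lin N v) = v) (h' : ∀ v, lin N (lin M v) = v) :
    V8 ≃ₗ[ZMod 2] V8 :=
  { linL M with invFun := lin N, left_inv := h', right_inv := h }

theorem linL_eq_1' : type_of% @linL.eq_1 := @linL.eq_1
theorem linE_eq_1' : type_of% @linE.eq_1 := @linE.eq_1

theorem lin_inv {M N : ℕ} (h : ∀ v, lin M (lin N v) = v) (v : V8) : lin N (lin M v) = v := by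
  obtain ⟨u, rfl⟩ := Finite.injective_iff_surjective.1 (Function.LeftInverse.injective h) v
  rw [h]

end

end Cfsg.Lib.X9
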